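/-
Two-groups with central involutions whose squaring map has fibres of constant size.
-/
import Cfsg.Agent.BG.B10
set_option autoImplicit false
set_option linter.unusedSectionVars false

namespace CF.Fgs1
open Subgroup CF.BG
open scoped commutatorElement Pointwise

theorem sum_sign {K : Type*} [Group K] [Fintype K] (f : K → ℤ) (hf : ∀ a b, f (a * b) = f a * f b)
    (h1 : ∀ a, f a = 1 ∨ f a = -1) :
    ((∀ a, f a = 1) ∧ ∑ a, f a = Fintype.card K) ∨ ((∃ a, f a = -1) ∧ ∑ a, f a = 0) := by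
  by_cases h : ∀ a, f a = 1
  · left; simp [h]
  · right
    push Not at h
    obtain ⟨a, ha⟩ := h
    have ha' := (h1 a).resolve_left ha
    refine ⟨⟨a, ha'⟩, ?_⟩
    have := Fintype.sum_equiv (Equiv.mulLeft a) (fun b => f (a * b)) f (fun _ => rfl)
    simp only [hf, ha', neg_mul, one_mul, Finset.sum_neg_distrib] at this
    linarith

theorem aniso_arith {a m s n : ℕ} (ha : 1 ≤ a) (hn : 2 ^ a ≤ n)
    (h1 : 2 ^ m + n = n * 2 ^ a + 2 ^ a) (h2 : ((2 : ℤ) ^ a - n) ^ 2 = 2 ^ m * 2 ^ s) :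
    m = 3 * a ∧ s = a := by
  obtain ⟨d, rfl⟩ := Nat.exists_eq_add_of_le hn
  have h3 : d ^ 2 = 2 ^ (m + s) := by
    have : ((d : ℤ)) ^ 2 = 2 ^ (m + s) := by rw [pow_add, ← h2]; push_cast; ring
    exact_mod_cast this
  obtain ⟨c, -, rfl⟩ := (Nat.dvd_prime_pow Nat.prime_two).mp
    (h3 ▸ Dvd.intro_left d (by ring) : d ∣ 2 ^ (m + s))
  rw [← pow_mul] at h3
  have h4 := Nat.pow_right_injective le_rfl h3
  have h5 : 2 ^ m + 2 ^ c = 2 ^ (2 * a) + 2 ^ (a + c) := by
    rw [pow_add, two_mul, pow_add]; nlinarith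
  have h6 : 2 ^ (c + 1) ∣ 2 ^ (a + c) := pow_dvd_pow _ (by omega)
  have h7 : c < m := by
    by_contra h
    have e1 : 2 ^ m ≤ 2 ^ c := Nat.pow_le_pow_right (by norm_num) (by omega)
    have e2 := Nat.le_of_dvd (by positivity) h6
    have e3 : 0 < 2 ^ (2 * a) := by positivity
    rw [pow_succ] at e2
    omega
  have h8 : 2 ^ (c + 1) ∣ 2 ^ m := pow_dvd_pow _ h7
  have h9 : c = 2 * a := by
    rcases lt_trichotomy c (2 * a) with h | h | h
    · exfalso
      have e1 : 2 ^ (c + 1) ∣ 2 ^ m + 2 ^ c := h5 ▸ dvd_add (pow_dvd_pow _ h) h6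
      have e2 := (Nat.dvd_add_right h8).mp e1
      have := (Nat.pow_dvd_pow_iff_le_right (by norm_num : 1 < 2)).mp e2
      omega
    · exact h
    · exfalso
      have e1 : 2 ^ c ∣ 2 ^ (2 * a) + 2 ^ (a + c) :=
        h5 ▸ dvd_add (pow_dvd_pow _ h7.le) dvd_rfl
      have e2 := (Nat.dvd_add_left (pow_dvd_pow 2 (by omega : c ≤ a + c))).mp e1
      have := (Nat.pow_dvd_pow_iff_le_right (by norm_num : 1 < 2)).mp e2
      omega
  subst h9
  have h10 : 2 ^ m = 2 ^ (a + 2 * a) := by omega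
  have := Nat.pow_right_injective le_rfl h10
  omega

section
variable {H : Type*} [Group H] [Finite H] {V : Subgroup H} (hZ : V ≤ center H)
  (hV : ∀ y : H, y ^ 2 = 1 ↔ y ∈ V) (hsq : ∀ y : H, y ^ 2 ∈ V)
include hZ hV hsq

theorem aniso_comm_eq (y u : H) : (y * u) ^ 2 = ⁅y, u⁆ * (u ^ 2 * y ^ 2) := by
  have h := mem_center_iff.mp (hZ (hsq y)) u
  rw [commutatorElement_def]
  calc (y * u) ^ 2 = y * u * y⁻¹ * (y ^ 2 * u) := by rw [sq, sq]; group
    _ = _ := by rw [← h, sq u]; group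

theorem aniso_comm_mem (y u : H) : ⁅y, u⁆ ∈ V := by
  have := aniso_comm_eq hZ hV hsq y u
  rw [eq_mul_inv_of_mul_eq this.symm]
  exact mul_mem (hsq _) (inv_mem (mul_mem (hsq _) (hsq _)))

theorem aniso_comm_mul (y y' u : H) : ⁅y * y', u⁆ = ⁅y, u⁆ * ⁅y', u⁆ := by
  have h := mem_center_iff.mp (hZ (aniso_comm_mem hZ hV hsq y' u))
  calc ⁅y * y', u⁆ = y * ⁅y', u⁆ * (u * y⁻¹ * u⁻¹) := by
        simp only [commutatorElement_def]; group
    _ = ⁅y', u⁆ * ⁅y, u⁆ := by rw [h y]; simp only [commutatorElement_def]; group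
    _ = _ := (h _).symm

theorem aniso_comm_mul' (y u u' : H) : ⁅y, u * u'⁆ = ⁅y, u⁆ * ⁅y, u'⁆ := by
  have h := mem_center_iff.mp (hZ (aniso_comm_mem hZ hV hsq y u'))
  calc ⁅y, u * u'⁆ = y * u * y⁻¹ * ⁅y, u'⁆ * u⁻¹ := by
        simp only [commutatorElement_def]; group
    _ = _ := by rw [mul_assoc (y * u * y⁻¹), ← h u⁻¹]; simp only [commutatorElement_def]; group

open Classical in
theorem aniso_sum [Fintype H] {n : ℕ}
    (hfib : ∀ v ∈ V, v ≠ 1 → Nat.card {y : H // y ^ 2 = v} = n) (f : H → ℤ) :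
    ∑ y : H, f (y ^ 2) = n * ∑ v : V, f v + (Nat.card V - n) * f 1 := by
  have h1 : ∑ y : H, f (y ^ 2) = ∑ v : V, (Nat.card {y : H // y ^ 2 = v} : ℤ) * f v := by
    rw [← Finset.sum_fiberwise (s := Finset.univ) (g := fun y : H => (⟨y ^ 2, hsq y⟩ : V))]
    refine Finset.sum_congr rfl fun v _ => ?_
    rw [Finset.sum_congr rfl (g := fun _ => f v) (fun y hy => by
      rw [← (Finset.mem_filter.mp hy).2]), Finset.sum_const, nsmul_eq_mul,
      Nat.card_eq_fintype_card, Fintype.card_subtype]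
    congr 3
    ext y
    simp [Subtype.ext_iff]
  have h2 : Nat.card {y : H // y ^ 2 = ((1 : V) : H)} = Nat.card V :=
    Nat.card_congr (Equiv.subtypeEquivRight fun y => hV y)
  rw [h1, Finset.mul_sum, ← Finset.add_sum_erase _ _ (Finset.mem_univ (1 : V)),
    ← Finset.add_sum_erase _ _ (Finset.mem_univ (1 : V)), h2,
    Finset.sum_congr rfl (g := fun v : V => (n : ℤ) * f v) (fun v hv => by
      rw [hfib v v.2 (fun h => (Finset.mem_erase.mp hv).1 (Subtype.ext h))])]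
  simp only [OneMemClass.coe_one]
  ring

theorem aniso_le {y : H} (hy : y ∉ V) {n : ℕ}
    (hfib : ∀ v ∈ V, v ≠ 1 → Nat.card {y : H // y ^ 2 = v} = n) :
    Nat.card V ≤ n ∧ (n = Nat.card V → ∀ u : H, u ^ 2 = y ^ 2 → y⁻¹ * u ∈ V) := by
  let f : V → {u : H // u ^ 2 = y ^ 2} := fun v => ⟨y * v, by
    have h := mem_center_iff.mp (hZ v.2) y
    rw [Commute.mul_pow h, (hV v).mpr v.2, mul_one]⟩
  have hf : Function.Injective f := fun a b h => by
    have := congrArg Subtype.val h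
    exact Subtype.ext (mul_left_cancel this)
  have hn := hfib _ (hsq y) (fun h => hy ((hV y).mp h))
  refine ⟨hn ▸ Nat.card_le_card_of_injective f hf, fun h u hu => ?_⟩
  have hb := hf.bijective_of_nat_card_le (by omega)
  obtain ⟨v, hv⟩ := hb.2 ⟨u, hu⟩
  have : y * v = u := congrArg Subtype.val hv
  rw [← this, inv_mul_cancel_left]; exact v.2

theorem aniso_pi : PiGrp {2} (⊤ : Subgroup H) := by
  refine piGrp_of_forall_elt fun x _ => ?_
  have h : x ^ 2 ^ 2 = 1 := by rw [sq 2, pow_mul]; exact (hV _).mpr (hsq x)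
  exact (piNat_pow_self Nat.prime_two 2).dvd (orderOf_dvd_of_pow_eq_one h)

theorem aniso_rad {n : ℕ} (hfib : ∀ v ∈ V, v ≠ 1 → Nat.card {y : H // y ^ 2 = v} = n)
    (hne : V ≠ ⊤) (hn : n ≠ Nat.card V) {M : Subgroup H} (hi : M.relIndex V = 2) :
    Nat.card H = Nat.card V ^ 3 ∧ ∀ u : H, (∀ y : H, ⁅y, u⁆ ∈ M) → u ∈ V := by
  classical
  have := Fintype.ofFinite H
  let χ : H → ℤ := fun g => if g ∈ M then 1 else -1
  have χ1 : ∀ g, χ g = 1 ∨ χ g = -1 := fun g => by by_cases h : g ∈ M <;> simp [χ, h]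
  have χm : ∀ g, χ g = 1 ↔ g ∈ M := fun g => by by_cases h : g ∈ M <;> simp [χ, h]
  have χmul : ∀ v ∈ V, ∀ w ∈ V, χ (v * w) = χ v * χ w := by
    intro v hv w hw
    have := mul_mem_iff_of_index_two (H := M.subgroupOf V) hi (a := ⟨v, hv⟩) (b := ⟨w, hw⟩)
    simp only [mem_subgroupOf, coe_mul] at this
    by_cases h1 : v ∈ M <;> by_cases h2 : w ∈ M <;> simp [χ, h1, h2, this]
  have χsq : ∀ g, χ g * χ g = 1 := fun g => by rcases χ1 g with h | h <;> simp [h]
  have hc := aniso_comm_mem hZ hV hsq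
  let R : Subgroup H :=
    { carrier := {u | ∀ y : H, ⁅y, u⁆ ∈ M}
      mul_mem' := fun {a b} ha hb y => by
        rw [aniso_comm_mul' hZ hV hsq]; exact mul_mem (ha y) (hb y)
      one_mem' := fun y => by simp
      inv_mem' := fun {a} ha y => by
        have := aniso_comm_mul' hZ hV hsq y a a⁻¹
        rw [mul_inv_cancel, commutatorElement_one_right] at this
        rw [eq_inv_of_mul_eq_one_right this.symm]
        exact inv_mem (ha y) }
  have hVR : V ≤ R := fun v hv y => by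
    rw [commutatorElement_eq_one_iff_mul_comm.mpr (mem_center_iff.mp (hZ hv) y)]
    exact one_mem _
  have hsumV : ∑ v : V, χ v = 0 := by
    rcases sum_sign (fun v : V => χ v) (fun a b => χmul a a.2 b b.2) (fun a => χ1 a) with h | h
    · exfalso
      have : V ≤ M := fun v hv => (χm v).mp (h.1 ⟨v, hv⟩)
      rw [relIndex_eq_one.mpr this] at hi
      exact absurd hi (by norm_num)
    · exact h.2
  have hS := aniso_sum hZ hV hsq hfib χ
  rw [hsumV, (χm 1).mpr (one_mem _), mul_zero, zero_add, mul_one] at hS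
  have hcard := aniso_sum hZ hV hsq hfib (fun _ => 1)
  simp only [Finset.sum_const, Finset.card_univ, nsmul_eq_mul, mul_one,
    ← Nat.card_eq_fintype_card] at hcard
  have hinner : ∀ u : H, ∑ y : H, χ ⁅y, u⁆ = if u ∈ R then (Nat.card H : ℤ) else 0 := by
    intro u
    rcases sum_sign (fun y : H => χ ⁅y, u⁆) (fun a b => by
      rw [aniso_comm_mul hZ hV hsq, χmul _ (hc _ _) _ (hc _ _)]) (fun a => χ1 _) with h | h
    · rw [if_pos (show u ∈ R from fun y => (χm _).mp (h.1 y)), h.2, Nat.card_eq_fintype_card]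
    · obtain ⟨⟨a, ha⟩, h2⟩ := h
      rw [if_neg (fun hu : u ∈ R => by rw [(χm _).mpr (hu a)] at ha; norm_num at ha), h2]
  have hS2 : (∑ y : H, χ (y ^ 2)) ^ 2 = Nat.card H * ∑ u : R, χ ((u : H) ^ 2) := by
    rw [sq, Finset.sum_mul_sum]
    have e1 : ∀ y : H, ∑ z : H, χ (y ^ 2) * χ (z ^ 2) = ∑ u : H, χ (u ^ 2) * χ ⁅y, u⁆ := by
      intro y
      rw [← Fintype.sum_equiv (Equiv.mulLeft y) (fun u => χ (y ^ 2) * χ ((y * u) ^ 2)) _
        (fun _ => rfl)]
      refine Finset.sum_congr rfl fun u _ => ?_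
      rw [aniso_comm_eq hZ hV hsq, χmul _ (hc _ _) _ (mul_mem (hsq _) (hsq _)),
        χmul _ (hsq _) _ (hsq _)]
      linear_combination (χ (u ^ 2) * χ ⁅y, u⁆) * χsq (y ^ 2)
    rw [Finset.sum_congr rfl (fun y _ => e1 y), Finset.sum_comm]
    simp only [← Finset.mul_sum, hinner, mul_ite, mul_zero]
    rw [← Finset.sum_filter, Finset.sum_subtype (p := fun u => u ∈ R) _ (by simp), Finset.mul_sum]
    exact Finset.sum_congr rfl fun u _ => mul_comm _ _
  obtain ⟨y0, hy0⟩ : ∃ y, y ∉ V := by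
    by_contra h
    push Not at h
    exact hne (eq_top_iff.mpr fun y _ => h y)
  have hle := (aniso_le hZ hV hsq hy0 hfib).1
  have hpi := aniso_pi hZ hV hsq
  obtain ⟨m, hm⟩ := hpi.card_pow
  rw [card_top'] at hm
  obtain ⟨a, ha⟩ := (hpi.le (le_top : V ≤ ⊤)).card_pow
  obtain ⟨s, hs⟩ := (hpi.le (le_top : R ≤ ⊤)).card_pow
  have ha1 : 1 ≤ a := by
    have := relIndex_dvd_card M V
    rw [hi, ha] at this
    rcases a with _ | a
    · simp at this
    · omega
  rcases sum_sign (fun u : R => χ ((u : H) ^ 2)) (fun a b => by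
      simp only [coe_mul]
      rw [aniso_comm_eq hZ hV hsq, χmul _ (hc _ _) _ (mul_mem (hsq _) (hsq _)),
        χmul _ (hsq _) _ (hsq _), (χm _).mpr (b.2 a)]
      ring) (fun a => χ1 _) with h | h
  · rw [h.2, hS, ← Nat.card_eq_fintype_card, hs, hm, ha] at hS2
    rw [hm, ha] at hcard
    have := aniso_arith (m := m) (s := s) ha1 (ha ▸ hle) (by
      have : ((2 ^ m + n : ℕ) : ℤ) = (n * 2 ^ a + 2 ^ a : ℕ) := by
        push_cast at hcard ⊢; linarith
      exact_mod_cast this) (by exact_mod_cast hS2)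
    refine ⟨by rw [hm, ha, this.1, ← pow_mul, mul_comm], fun u hu => ?_⟩
    have e : V = R := eq_of_card_eq hVR (by rw [ha, hs, this.2])
    rw [e]; exact hu
  · rw [h.2, hS, mul_zero, pow_eq_zero_iff (by norm_num), sub_eq_zero] at hS2
    exact absurd (by exact_mod_cast hS2.symm) hn

theorem aniso_count {n : ℕ} (hfib : ∀ v ∈ V, v ≠ 1 → Nat.card {y : H // y ^ 2 = v} = n)
    (hne : V ≠ ⊤) : (∀ y u : H, u ^ 2 = y ^ 2 → y⁻¹ * u ∈ V) ∨
      (Nat.card H = Nat.card V ^ 3 ∧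
        ∀ u : H, u ∉ V → Nat.card (centralizer ({u} : Set H)) = Nat.card V ^ 2) := by
  by_cases hn : n = Nat.card V
  · left
    intro y u h
    by_cases hy : y ∈ V
    · exact mul_mem (inv_mem hy) ((hV u).mp (h.trans ((hV y).mpr hy)))
    · exact (aniso_le hZ hV hsq hy hfib).2 hn u h
  right
  have hpi := aniso_pi hZ hV hsq
  have hVp := hpi.le (le_top : V ≤ ⊤)
  have key : ∀ I : Subgroup H, I < V → ∃ M, I ≤ M ∧ M.relIndex V = 2 := by
    intro I hI
    have h1 := hVp.logn_lt hI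
    obtain ⟨M, h2, h3, h4⟩ := hVp.exists_logn_between hI.le (n := logn 2 (♯V) - 1)
      (by omega) (by omega)
    refine ⟨M, h2, ?_⟩
    have h5 := logn_card_eq_add (p := 2) h3
    rw [(hVp.relIndex M).eq_pow_logn (relIndex_ne_zero' _ _),
      show logn 2 (M.relIndex V) = 1 by omega, pow_one]
  have hV1 : ⊥ < V := by
    rw [bot_lt_iff_ne_bot]
    intro h
    obtain ⟨x, -, hx⟩ := exists_mem_orderOf_eq Nat.prime_two
      (hpi.dvd_card (fun h' => hne (h.trans h'.symm)))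
    have := (hV x).mp (orderOf_dvd_iff_pow_eq_one.mp hx.dvd)
    rw [h, mem_bot] at this
    rw [this, orderOf_one] at hx
    exact absurd hx (by norm_num)
  obtain ⟨M0, -, hM0⟩ := key ⊥ hV1
  have h3 := (aniso_rad hZ hV hsq hfib hne hn hM0).1
  refine ⟨h3, fun u hu => ?_⟩
  let f : H →* H := MonoidHom.mk' (fun y => ⁅y, u⁆) (fun a b => aniso_comm_mul hZ hV hsq a b u)
  have hr : f.range = V := by
    by_contra h
    obtain ⟨M, hM, hMi⟩ := key f.range
      (lt_of_le_of_ne (by rintro _ ⟨y, rfl⟩; exact aniso_comm_mem hZ hV hsq y u) h)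
    exact hu ((aniso_rad hZ hV hsq hfib hne hn hMi).2 u fun y => hM ⟨y, rfl⟩)
  have hk : f.ker = centralizer {u} := by
    ext y
    rw [MonoidHom.mem_ker, mem_centralizer_singleton_iff]
    exact commutatorElement_eq_one_iff_mul_comm
  have h4 := card_mul_index f.ker
  rw [index_ker, hr, hk, h3, pow_succ] at h4
  exact Nat.eq_of_mul_eq_mul_right (card_pos' V) h4

end

end CF.Fgs1
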