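/-
Shult's lemma and fixed-point-free actions of the symmetric group of degree three.
-/
import Cfsg.Agent.Fgs1.HHPq
set_option autoImplicit false
set_option linter.unusedSectionVars false

namespace CF.Fgs1
open Module Subgroup CF.BG Polynomial
open scoped commutatorElement

variable {Γ : Type*} [Group Γ] [Finite Γ] {k : Type*} [Field k] {W : Type*} [AddCommGroup W]
  [Module k W]

/-- Shult's lemma -/
theorem RepOn.shult [IsAlgClosed k] [FiniteDimensional k W] {H N A : Subgroup Γ}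
    {ρ : Γ → End k W} (h : RepOn H ρ) (hN : N ≤ H) (hA : A ≤ H) (n : A ≤ 𝐍 N) {q : ℕ}
    (pN : PiGrp {q} N) (pA : (♯A).Prime) (c : (♯A).Coprime (♯N)) (kN : ((♯N : ℕ) : k) ≠ 0)
    (f : FixV ρ A = ⊥) (hne : ¬ ⁅N, A⁆ ≤ Kr H ρ) : ∃ D, 1 < D ∧ D + 1 = ♯A ∧ q ∣ D := by
  have N1 : N ≠ ⊥ := fun a => hne (by simp [a])
  have hq := pN.prime N1
  obtain ⟨Q, hQ, l⟩ := exists_lv (K := Kr H ρ) pN ((piNat_compl_single hq).mpr
    fun a => not_dvd_of_coprime c hq a (pN.dvd_card N1)) n le_rfl (le_norm_self A)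
    (hA.trans h.norm_ker) (hN.trans h.norm_ker) hne
  obtain ⟨a, ha, a1⟩ := exists_mem_ne_one (ne_bot_of_prime_card pA)
  have hz := zpowers_eq_of_prime pA ha a1
  have ho : a ^ ♯A = 1 := by rw [← hz, Nat.card_zpowers, pow_orderOf_eq_one]
  obtain ⟨b, hb, hb1⟩ := SetLike.not_le_iff_exists.mp l.not_le_K
  have QH := hQ.trans hN
  rcases h.hh_main QH (cast_card_ne_zero kN hQ) (l.der_le.trans (h.le_rad QH (LM_le _ _ _)
    (l.comm_LM_P.trans inf_le_right))) hb (fun e => hb1 (h.mem_ker.mpr ⟨QH hb, e⟩)) (hA ha)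
    (l.nP ha) pA (l := 0) (by simpa using ho)
    ((Nat.Prime.coprime_iff_not_dvd pA).mp (coprime_mono c le_rfl hQ))
    (by rw [pow_zero, pow_one, hz, l.comm_eq]) with e | ⟨R, η, s, D, -, -, hs, -, hD, hD2, hD1, -⟩
  · have h1 := (e _ (geom_ne_zero pA.pos) (aeval_geom_eq_zero h (hA ha) ho (hz.symm ▸ f))).trans
      (natDegree_geom _)
    have := pA.pos
    rw [zero_add, pow_one] at h1; omega
  · refine ⟨D, hD, by simpa [Nat.le_zero.mp hs] using hD1, ?_⟩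
    obtain ⟨r, hr, hd⟩ := Nat.exists_prime_and_dvd hD.ne'
    have : r ∈ ({q} : Set ℕ) := (hD2 ▸ l.pi.relIndex R) r hr (hd.trans (dvd_pow_self D two_ne_zero))
    exact Set.mem_singleton_iff.mp this ▸ hd

theorem class_two_s3 {N : Subgroup Γ} (h2 : ⁅N, N⁆ ≤ 𝐂 N) {s t : Γ} (sN : s ∈ 𝐍 N) (tN : t ∈ 𝐍 N)
    (s3 : s ^ 3 = 1) (st : t * s * t⁻¹ = s⁻¹) (f : N ⊓ 𝐂₁ s = ⊥) (c : (♯(zpowers t)).Coprime (♯N))
    (c3 : PiGrp {3}ᶜ N) : ⁅N, N⁆ ≤ ⁅N, zpowers t⁆ := by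
  set I := ⁅N, zpowers t⁆
  have nt := zpowers_le.mpr tN
  have IN : I ≤ N := comm_le_left nt
  have nI : N ≤ 𝐍 I := norm_comm_left _ _
  have cen : ∀ a ∈ N, ∀ b ∈ N, ∀ x ∈ N, x * ⁅a, b⁆ = ⁅a, b⁆ * x := fun a ha b hb x hx =>
    mem_cent.mp (h2 (commutator_mem_commutator ha hb)) x hx
  have hl : ∀ a ∈ N, ∀ b ∈ N, ∀ x ∈ N, ⁅a * b, x⁆ = ⁅a, x⁆ * ⁅b, x⁆ := fun a ha b hb x hx => by
    rw [show ⁅a * b, x⁆ = (a * ⁅b, x⁆) * a⁻¹ * ⁅a, x⁆ by simp only [commutatorElement_def]; group,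
      cen b hb x hx a ha, mul_inv_cancel_right,
      cen b hb x hx _ (BG.der_le N (commutator_mem_commutator ha hx))]
  have hr : ∀ a ∈ N, ∀ b ∈ N, ∀ x ∈ N, ⁅x, a * b⁆ = ⁅x, a⁆ * ⁅x, b⁆ := fun a ha b hb x hx => by
    rw [show ⁅x, a * b⁆ = ⁅x, a⁆ * ((a * ⁅x, b⁆) * a⁻¹) by simp only [commutatorElement_def]; group,
      cen x hx b hb a ha, mul_inv_cancel_right]
  let σ : Γ → Γ := fun a => s * a * s⁻¹
  have σN : ∀ a ∈ N, σ a ∈ N := fun a ha => conj_mem_of_norm sN ha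
  have s3' : s * s * s = 1 := by rw [← s3, pow_three, mul_assoc]
  have si : s⁻¹ = s * s := (eq_inv_of_mul_eq_one_left s3').symm
  have h3 : ∀ a ∈ N, a * σ a * σ (σ a) = 1 := fun a ha => by
    obtain ⟨x, -, rfl⟩ := CF.Coprime.fpf_exists_eq sN f ha
    simp only [σ]
    calc _ = x⁻¹ * (s * s * s) * x * (s * s * s)⁻¹ := by simp [mul_assoc]
      _ = 1 := by rw [s3']; group
  have h4 : ∀ a ∈ N, ⁅a, σ a⁆ = 1 := fun a ha => by
    have e1 := h3 a ha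
    have e2 := congrArg (·⁻¹) (h3 _ (N.inv_mem ha))
    simp only [σ] at e1 e2 ⊢
    rw [commutatorElement_eq_one_iff_mul_comm, eq_inv_of_mul_eq_one_left e1, eq_comm,
      ← mul_eq_one_iff_eq_inv', ← inv_one, ← e2]
    simp [mul_assoc]
  have h5 : ∀ a ∈ N, ∀ b ∈ N, ⁅σ a, b⁆ = ⁅a, σ b⁆ := fun a ha b hb => by
    have e1 := h4 _ (N.mul_mem ha hb)
    rw [show σ (a * b) = σ a * σ b by simp only [σ]; group, hl a ha b hb _ (N.mul_mem (σN a ha) (σN b hb)),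
      hr _ (σN a ha) _ (σN b hb) a ha, hr _ (σN a ha) _ (σN b hb) b hb, h4 a ha, h4 b hb, one_mul,
      mul_one, mul_eq_one_iff_eq_inv, commutatorElement_inv] at e1
    exact e1.symm
  have key : ∀ a ∈ N ⊓ 𝐂 (zpowers t), ∀ b ∈ N ⊓ 𝐂 (zpowers t), ⁅a, b⁆ ∈ I := by
    intro a ha b hb
    have e0 : σ a * a * σ a ∈ I := by
      have e1 := commutator_mem_commutator (σN a ha.1) (mem_zpowers t)
      have e2 : t * a * t⁻¹ = a := by
        rw [mem_cent.mp ha.2 t (mem_zpowers t), mul_inv_cancel_right]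
      have e3 : t * (σ a)⁻¹ * t⁻¹ = (σ (σ a))⁻¹ := by
        simp only [σ]
        calc _ = ((t * s * t⁻¹) * (t * a * t⁻¹) * (t * s * t⁻¹)⁻¹)⁻¹ := by group
          _ = _ := by rw [st, e2]; conv_lhs => rw [si]
                      group
      rwa [commutatorElement_def, mul_assoc, mul_assoc, ← mul_assoc t, e3,
        ← eq_inv_of_mul_eq_one_left (h3 a ha.1), ← mul_assoc] at e1
    have hb' := N.mul_mem (N.mul_mem (σN b hb.1) hb.1) (σN b hb.1)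
    have e4 : ⁅σ a * a * σ a, σ b * b * σ b⁆ ∈ I :=
      comm_le_left nI (commutator_mem_commutator e0 hb')
    have e5 : ⁅σ a, σ b⁆ = ⁅a, b⁆⁻¹ * ⁅a, σ b⁆⁻¹ := by
      have e6 := hr _ (N.mul_mem hb.1 (σN b hb.1)) _ (σN _ (σN b hb.1)) a ha.1
      rw [h3 b hb.1, commutatorElement_one_right, hr _ hb.1 _ (σN b hb.1) a ha.1, eq_comm,
        mul_eq_one_iff_inv_eq, cen a ha.1 _ (σN b hb.1) _
          (BG.der_le N (commutator_mem_commutator ha.1 hb.1)), mul_inv_rev] at e6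
      rw [h5 a ha.1 _ (σN b hb.1), ← e6]
    have a1 := ha.1
    have b1 := hb.1
    have a2 := σN a a1
    have b2 := σN b b1
    rw [hl _ (N.mul_mem a2 a1) _ a2 _ hb', hl _ a2 _ a1 _ hb', hr _ (N.mul_mem b2 b1) _ b2 _ a2,
      hr _ b2 _ b1 _ a2, hr _ (N.mul_mem b2 b1) _ b2 _ a1, hr _ b2 _ b1 _ a1, e5, h5 a a1 b b1] at e4
    have cm : Commute ⁅a, b⁆ ⁅a, σ b⁆ :=
      cen a a1 _ b2 _ (BG.der_le N (commutator_mem_commutator a1 b1))
    generalize ⁅a, σ b⁆ = y at e4 cm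
    have hx := BG.der_le N (commutator_mem_commutator a1 b1)
    generalize ⁅a, b⁆ = x at e4 cm hx
    have e7 : (x ^ 3)⁻¹ ∈ I := by
      convert e4 using 1
      calc _ = x⁻¹ * (x⁻¹ * x⁻¹ * y) * y⁻¹ := by group
        _ = x⁻¹ * (y * (x⁻¹ * x⁻¹)) * y⁻¹ := by rw [(cm.inv_left.mul_left cm.inv_left).eq]
        _ = _ := by group
    refine zpowers_le.mpr (inv_mem_iff.mp e7) (mem_zpowers_pow_iff.mpr ?_)
    exact ((piNat_compl_single_iff_coprime Nat.prime_three).mp (c3.elt hx)).symm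
  have e := comm_sup_inf_cent nt c (Or.inl (abel_zpowers t).sol)
  conv_lhs => rw [← e]
  have CN : N ⊓ 𝐂 (zpowers t) ≤ 𝐍 I := inf_le_left.trans nI
  exact comm_sup_le (comm_le_left (sup_le (le_norm_self I) CN))
    (comm_sup_le' (comm_le_right CN) (commutator_le.mpr key) (le_norm_self I) CN)
    (le_norm_self I) CN

theorem der_le_s3 {N : Subgroup Γ} (nil : Nil N) {s t : Γ} (sN : s ∈ 𝐍 N) (tN : t ∈ 𝐍 N)
    (s3 : s ^ 3 = 1) (t2 : t ^ 2 = 1) (st : t * s * t⁻¹ = s⁻¹)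
    (f : N ⊓ 𝐂 (zpowers s) ⊓ 𝐂 (zpowers t) = ⊥) (c2 : PiGrp {2}ᶜ N) (c3 : PiGrp {3}ᶜ N) :
    ⁅N, N⁆ ≤ ⁅N, zpowers t⁆ ∧ ⁅N, N⁆ ≤ ⁅N, zpowers s⁆ := by
  have ns := zpowers_le.mpr sN
  have nt := zpowers_le.mpr tN
  have ps : PiGrp {3} (zpowers s) := card_zpowers_pi (n := 1) Nat.prime_three (by simpa using s3)
  have pt : PiGrp {2} (zpowers t) := card_zpowers_pi (n := 1) Nat.prime_two (by simpa using t2)
  have ts : zpowers t ≤ 𝐍 (zpowers s) := zpowers_le.mpr (cj_eq_self.mp (by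
    rw [cj_zpowers, st, zpowers_inv]))
  set C := N ⊓ 𝐂 (zpowers s) with hC
  have tC : zpowers t ≤ 𝐍 C := norm_inf_cent nt ts
  constructor
  swap
  · have aC : Abel C := Abel.of_comm (CF.Coprime.fpf_isMulCommutative (tC (mem_zpowers t))
      (by rwa [cent_zpowers t] at f) (by rw [t2]; exact one_mem _))
    have nI : N ≤ 𝐍 ⁅N, zpowers s⁆ := norm_comm_left _ _
    have CN : C ≤ 𝐍 ⁅N, zpowers s⁆ := inf_le_left.trans nI
    conv_lhs => rw [← comm_sup_inf_cent ns (PiNat.coprime ps c3) (Or.inr nil.sol)]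
    exact comm_sup_le (comm_le_left (sup_le (le_norm_self _) CN))
      (comm_sup_le' (comm_le_right CN) (by rw [der_eq_bot.mpr aC]; exact bot_le)
        (le_norm_self _) CN) (le_norm_self _) CN
  set I := ⁅N, zpowers t⁆
  have nI : N ≤ 𝐍 I := norm_comm_left _ _
  have CI : C ≤ I := (comm_eq_of_fpf tC (PiNat.coprime pt c2.inf_left)
    (nil.sol.mono inf_le_left) f).ge.trans (commutator_mono inf_le_left le_rfl)
  set K := (⁅C, N⁆ ⊔ C) ⊔ ⁅⁅N, N⁆, N⁆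
  have nK : N ≤ 𝐍 K := norm_sup (norm_of_comm_le (comm_sup_le
    ((comm_le_left (norm_comm_right _ _)).trans le_sup_left) le_sup_left
    (norm_of_le le_sup_left) (norm_of_le le_sup_right))) (norm_comm_right _ _)
  have nK' : ∀ X, X ≤ 𝐍 N → X ≤ 𝐍 C → X ≤ 𝐍 K := fun X a b =>
    norm_sup (norm_sup (norm_commutator b a) b) (norm_commutator (norm_commutator a a) a)
  have sK := nK' _ ns (norm_of_cent' inf_le_right)
  have tK := nK' _ nt tC
  have s1 := sK (mem_zpowers s)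
  have t1 := tK (mem_zpowers t)
  have nd : ⁅N, N⁆ ≤ 𝐍 K := (BG.der_le N).trans nK
  have h1 := class_two_s3 (N := qt K N) (s := qe K s) (t := qe K t) (by
      rw [← qt_comm nK nK, qt_cent_iff nd nK]; exact le_sup_right)
    (qt_norm K ns (qe_mem_qt (mem_zpowers s) s1)) (qt_norm K nt (qe_mem_qt (mem_zpowers t) t1))
    (by rw [← qe_pow s1, s3]; exact qe_of_mem (one_mem _)) (by rw [← qe_conj t1 s1, st, qe_inv s1])
    (by
      rw [← cent_zpowers, ← qt_zpowers s1, ← qt_inf_cent sK ns (PiNat.coprime ps c3.inf_left)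
        (Or.inl (abel_zpowers s).sol)]
      exact qt_of_le (le_sup_right.trans le_sup_left))
    (by rw [← qt_zpowers t1]; exact coprime_qt K (PiNat.coprime pt c2)) (c3.qt K)
  rw [← qt_zpowers t1, ← qt_comm nK nK, ← qt_comm nK tK,
    qt_le_qt_iff nd ((comm_le_left nt).trans nK)] at h1
  have h2 : ⁅N, N⁆ ≤ I ⊔ ⁅⁅N, N⁆, N⁆ := h1.trans (sup_le (sup_le (sup_le
    (((commutator_mono CI le_rfl).trans (comm_le_left nI)).trans le_sup_left)
    (CI.trans le_sup_left)) le_sup_right) le_sup_left)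
  have nd' : ⁅N, N⁆ ≤ 𝐍 I := (BG.der_le N).trans nI
  rw [← qt_eq_bot nd']
  refine (nil.qt I).eq_bot_of_le_comm (qt_mono I (BG.der_le N)) ?_
  rwa [← qt_comm nd' nI, qt_le_qt_iff nd' ((comm_le_left (norm_der N |>.trans' (le_norm_self N))).trans nd')]

theorem exists_nonabel {G A : Subgroup Γ} {L : ℕ → Subgroup Γ} (h : Chain G A L)
    (e : FS G 2 = G) (hne : ¬ ⁅G, G⁆ ≤ FS G 1) :
    ∃ q X, PiGrp {q} X ∧ X ≤ L 1 ⊓ FS G 2 ∧ L 1 ≤ 𝐍 X ∧ ¬ ⁅X, X⁆ ≤ FS G 1 := by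
  by_contra a
  push Not at a
  have nG := (FS_normal G 1).norm
  have nil : Nil (qt (FS G 1) G) := by have := nil_FS G 1; rwa [e] at this
  refine hne ((abel_qt_iff nG).mp (nil.le_of_forall fun q _ _ => ?_))
  have hX : 𝐎 {q} (L 1 ⊓ FS G 2) ≤ 𝐍 (FS G 1) := le_norm_FS (le_of_FS (O_le _ _)) 1
  have h1 := (abel_qt_iff hX).mpr (a q _ (O_pi _ _) (O_le _ _)
    (le_norm_O _ (norm_inf (le_norm_self _) (norm_FS (h.nG 1) _))))
  have h2 := (qt_le_qt_iff (le_norm_FS ((OS_le G 1 q).trans (FS_le G _)) 1) hX).mpr (h.cov 1 q)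
  rw [OS, qt_qp] at h2
  conv_rhs => rw [← (nil.dprod {q}).sup]
  exact le_cent_sup (h1.mono h2) (O_cent_O_compl _ _)

theorem der_le_F_of_s3 {G A : Subgroup Γ} (nA : A ≤ 𝐍 G) (eA : ♯A = 2 * 3)
    (hA : ∀ B, B ≤ A → (♯B).Prime → ∃ s ∈ A, ∃ t ∈ A, s ^ 3 = 1 ∧ t ^ 2 = 1 ∧ t * s * t⁻¹ = s⁻¹ ∧
      zpowers s ⊔ zpowers t = A ∧ (B = zpowers s ∨ B = zpowers t))
    (c2 : PiGrp {2}ᶜ G) (c3 : PiGrp {3}ᶜ G) (s : Sol G) (f : G ⊓ 𝐂 A = ⊥) : ⁅G, G⁆ ≤ 𝐅 G := by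
  have pq : PQ A := pq_of_card Nat.prime_two Nat.prime_three eA fun a => absurd a (by norm_num)
  have c : (♯A).Coprime (♯G) := eA ▸ Nat.Coprime.mul_left
    ((piNat_compl_single_iff_coprime Nat.prime_two).mp c2).symm
    ((piNat_compl_single_iff_coprime Nat.prime_three).mp c3).symm
  rw [← FS_one]
  by_contra hne
  obtain ⟨L, hL⟩ := exists_chain nA c s
  obtain ⟨q, N, pN, hN, nN, hd⟩ := exists_nonabel hL (FS_two_of_pq nA pq c s f) hne
  have aN := (hL.le_A _).trans nN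
  have NG := le_of_FS hN
  have dN := BG.der_le N
  have hH : A ⊔ N ≤ L 0 := sup_le (hL.le_A _) (hN.trans (inf_le_left.trans (hL.anti _)))
  have nH : A ⊔ N ≤ 𝐍 N := sup_le aN (le_norm_self N)
  obtain ⟨V, p, hpq, hV, l⟩ := hL.exists_next hH (dN.trans le_sup_right) (nH.trans (norm_der N))
    (pN.le dN) (dN.trans (hN.trans inf_le_right)) hd
  have VG := le_of_FS hV
  haveI := Fact.mk l.prime
  obtain ⟨U, ρ, Λ, d, hU, -, hk⟩ := l.exists_dualMod (AlgebraicClosure (ZMod p))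
    {LM (FS G 0) ⁅N, N⁆ V} ⟨_, rfl⟩ (by rintro R rfl; exact ⟨le_rfl, l.LM_lt⟩)
    (by rintro g hg R rfl; exact cj_of_norm (l.nM hg))
  have h := d.rep
  have kA := cast_ne_zero_of_coprime (AlgebraicClosure (ZMod p)) l.pi l.ne_bot
    (coprime_mono c le_rfl VG)
  have kN := cast_ne_zero_of_pi (AlgebraicClosure (ZMod p)) l.prime (pN.of_single_ne hpq.symm)
  have fA := d.fixV_eq_bot le_sup_left (comm_eq_of_fpf (le_sup_left.trans l.nP)
    (coprime_mono c le_rfl VG) l.pi.sol (eq_bot_mono f (inf_le_inf_right _ VG)))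
  obtain ⟨z, hz, hz1⟩ := exists_ne_one_of_fixV (d.fixV_eq_bot (dN.trans le_sup_right) l.comm_eq)
  set Z := ⁅N, N⁆ ⊓ centMod N (Kr (A ⊔ N) ρ)
  have ZN : Z ≤ N := inf_le_left.trans dN
  have ZH : Z ≤ A ⊔ N := ZN.trans le_sup_right
  have nK : N ≤ 𝐍 (Kr (A ⊔ N) ρ) := le_sup_right.trans h.norm_ker
  have nZ : A ⊔ N ≤ 𝐍 Z := norm_inf (nH.trans (norm_der N)) (norm_centMod nH h.norm_ker)
  have cZ : ⁅Z, N⁆ ≤ Kr (A ⊔ N) ρ := (commutator_mono inf_le_right le_rfl).trans (comm_centMod_le _ _)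
  have Z1 : ¬ Z ≤ Kr (A ⊔ N) ρ := fun a => by
    refine (pN.nil.qt (Kr (A ⊔ N) ρ)).inf_cent_ne_bot ((der_normal N).qt _) (fun b => hz1
      (h.eq_one ((qt_eq_bot (dN.trans nK)).mp b) hz)) ?_
    rw [← qt_inf_qp, qp_cent_eq nK]; exact qt_of_le a
  have fZ := (hk Z ZH nZ).resolve_left fun a => Z1 (h.le_kr ZH a)
  obtain ⟨w, -, h0, ξ, hw⟩ := h.exists_wt ZH (h.comm_of_kr ZH ZH
    ((commutator_mono le_rfl ZN).trans cZ)) (U := ⊤) top_ne_bot fun _ _ _ _ => trivial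
  have nt : ¬ ∀ z ∈ Z, ξ z = 1 := fun a => h0 ((Submodule.eq_bot_iff _).mp fZ _ fun g hg => by
    rw [hw g hg, a g hg, one_smul])
  have kZ := cast_card_ne_zero kN ZN
  have aZ := le_sup_left.trans nZ
  have ch := h.isChar ZH hw h0
  set B := A ⊓ StabCh Z ξ
  have B1 : B ≠ ⊥ := h.stab_ne_bot ZH le_sup_left aZ kA kZ fA hw h0
  have BA : B ≠ A := fun a => nt fun z hz => ch.eq_one_of_le_stabCh (a.ge.trans inf_le_right)
    ((comm_eq_of_fpf aZ (coprime_mono c le_rfl (ZN.trans NG)) (s.mono (ZN.trans NG))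
      (eq_bot_mono f (inf_le_inf_right _ (ZN.trans NG)))).symm ▸ hz)
  have pB := (pq B inf_le_left B1 BA).1
  obtain ⟨σ, hσ, e⟩ := (h.mono inf_le_left).restrict
    (h.stab_wt_of_le ZH inf_le_left (inf_le_right : _ ≤ StabCh Z ξ))
  have hN' : N ≤ (A ⊔ N) ⊓ StabCh Z ξ :=
    le_inf le_sup_right (h.le_stabCh ZH (le_sup_right.trans nZ) cZ hw h0)
  have hB' : B ≤ (A ⊔ N) ⊓ StabCh Z ξ := inf_le_inf_right _ le_sup_left
  have h1 : ⁅N, B⁆ ≤ Kr (k := AlgebraicClosure (ZMod p)) (W := Wt ρ Z ξ)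
      ((A ⊔ N) ⊓ StabCh Z ξ) σ := by
    by_contra a
    obtain ⟨D, hD, hD1, hD2⟩ := hσ.shult hN' hB' (inf_le_left.trans aN) pN pB
      (coprime_mono c inf_le_left NG) kN (eq_bot_iff.mpr fun u hu => Subtype.ext
        (h.wt_fix ZH le_sup_left aZ kA kZ fA u.2 fun g hg => by rw [← e g (hB' hg), hu g hg])) a
    have h2 : ♯B ∣ 2 * 3 := eA ▸ card_dvd inf_le_left
    have N1 : N ≠ ⊥ := fun b => a (by simp [b])
    have hq := pN.prime N1
    have : D = 2 := by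
      rcases (Nat.Prime.dvd_mul pB).mp h2 with b | b
      · have := Nat.le_of_dvd two_pos b; omega
      · have := Nat.le_of_dvd three_pos b; omega
    rw [this, Nat.prime_dvd_prime_iff_eq hq Nat.prime_two] at hD2
    exact (c2.le NG).not_dvd' hq (by simp [hD2]) (pN.dvd_card N1)
  obtain ⟨x, hx, y, hy, x3, y2, xy, e1, e2⟩ := hA B inf_le_left pB
  have h2 := der_le_s3 pN.nil (aN hx) (aN hy) x3 y2 xy (by
    rw [inf_assoc, ← cent_sup, e1]; exact eq_bot_mono f (inf_le_inf_right _ NG)) (c2.le NG) (c3.le NG)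
  have h3 : ⁅N, N⁆ ≤ ⁅N, B⁆ := by rcases e2 with a | a <;> rw [a] <;> [exact h2.2; exact h2.1]
  refine nt fun z hz => wt_eq_one hw h0 hz ?_
  have := e z (hN' (ZN hz)) ⟨w, hw⟩
  rw [hσ.eq_one (h3.trans h1) hz.1] at this
  exact this.symm

end CF.Fgs1
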