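/-
Groups whose subgroups of order `p` are permuted transitively: `p`-length one.
-/
import Cfsg.Agent.BG.B10
import Cfsg.Agent.Solv.PiSep
set_option autoImplicit false
set_option linter.unusedSectionVars false

namespace CF.Fgs1
open Subgroup CF.BG
open scoped commutatorElement Pointwise

variable {G : Type*} [Group G] [Finite G]

/-- `O_{p,p'}(G)` -/
def pPPrime (p : ℕ) (G : Type*) [Group G] : Subgroup G :=
  (Cfsg.pPrimeCore p (G ⧸ Cfsg.pCore p G)).comap (QuotientGroup.mk' (Cfsg.pCore p G))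

instance pPPrime_normal (p : ℕ) (G : Type*) [Group G] : (pPPrime p G).Normal := by
  unfold pPPrime; infer_instance

theorem comap_mk'_characteristic {G : Type*} [Group G] (N : Subgroup G) [hN : N.Characteristic]
    (K : Subgroup (G ⧸ N)) [hK : K.Characteristic] :
    (K.comap (QuotientGroup.mk' N)).Characteristic := by
  refine characteristic_iff_comap_le.mpr fun φ x hx => ?_
  have h1 : N.map (φ : G →* G) = N := characteristic_iff_map_eq.mp hN φ
  let ψ : G ⧸ N ≃* G ⧸ N := QuotientGroup.congr N N φ h1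
  have h2 : K.comap ψ.toMonoidHom = K := hK.fixed ψ
  rw [mem_comap, ← h2, mem_comap]
  exact hx

instance pPPrime_characteristic (p : ℕ) (G : Type*) [Group G] : (pPPrime p G).Characteristic :=
  comap_mk'_characteristic _ _

theorem pCore_le_pPPrime (p : ℕ) : Cfsg.pCore p G ≤ pPPrime p G := by
  intro x hx
  rw [pPPrime, mem_comap, QuotientGroup.mk'_apply, (QuotientGroup.eq_one_iff x).mpr hx]
  exact one_mem _

theorem relIndex_pPPrime (p : ℕ) : (Cfsg.pCore p G).relIndex (pPPrime p G) =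
    Nat.card (Cfsg.pPrimeCore p (G ⧸ Cfsg.pCore p G)) := by
  have := relIndex_comap (⊥ : Subgroup (G ⧸ Cfsg.pCore p G)) (QuotientGroup.mk' (Cfsg.pCore p G))
    (pPPrime p G)
  rw [MonoidHom.comap_bot, QuotientGroup.ker_mk', pPPrime,
    map_comap_eq_self_of_surjective (QuotientGroup.mk'_surjective _), relIndex_bot_left] at this
  exact this

/-- Frattini argument for a complement of a normal solvable Hall subgroup of a normal subgroup -/
theorem sup_norm_compl {P R T : Subgroup G} (h : SDProd P R T) [P.Normal] [T.Normal]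
    (c : (♯R).Coprime (♯P)) (s : Sol P) : P ⊔ 𝐍 R = ⊤ := by
  rw [eq_top_iff]
  intro g _
  have h1 : cj g R ≤ P ⊔ R := by
    rw [h.sup]; exact cj_le_of_norm (by rw [normalizer_eq_top]; trivial) h.right_le
  obtain ⟨k, hk, hk'⟩ := exists_cj_le_of_le_sup h.norm h1
    (by rwa [cj_def, card_map (conj_inj g)]) (Or.inr s)
  rw [cj_cj] at hk'
  have := mem_norm_of_cj_le hk'
  have e : g = k⁻¹ * (k * g) := by group
  rw [e]
  exact mul_mem (mem_sup_left (inv_mem hk)) (mem_sup_right this)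

theorem split_aux {p : ℕ} [hp : Fact p.Prime] (hG : Cfsg.IsPSolvable p G)
    (h0 : Cfsg.pPrimeCore p G = ⊥)
    (hchar : ∀ K : Subgroup G, K.Characteristic → p ∣ ♯K → ∀ x : G, x ^ p = 1 → x ∈ K) :
    ¬ p ∣ (Cfsg.pCore p G).index ∨
      (pPPrime p G ≠ Cfsg.pCore p G ∧ ∀ x : G, x ^ p = 1 → x ∈ 𝐂 (pPPrime p G)) := by
  set P := Cfsg.pCore p G with hP
  set T := pPPrime p G with hT
  have hPp : PiGrp {p} P := piGrp_of_isPGroup hp.out CF.Solv.pCore_isPGroup
  have hC : 𝐂 P ≤ P := CF.Solv.centralizer_pCore_le_of_isPSolvable hG h0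
  have hPT : P ≤ T := pCore_le_pPPrime p
  by_cases hTP : T = P
  · left
    have h1 : Cfsg.pPrimeCore p (G ⧸ P) = ⊥ := by
      have : P.relIndex T = _ := relIndex_pPPrime (G := G) p
      rw [hTP, relIndex_self] at this
      exact card_eq_one.mp this.symm
    have h2 := CF.Solv.centralizer_pCore_le_of_isPSolvable
      (CF.Solv.isPSolvable_quotient hG P) h1
    rw [CF.Solv.pCore_quotient_pCore, cent_bot] at h2
    have h3 : P.index = 1 := by
      rw [index_eq_card, ← card_top', card_eq_one]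
      exact le_bot_iff.mp h2
    rw [h3]
    exact hp.out.one_lt.ne' ∘ Nat.dvd_one.mp
  by_cases hK : p ∣ ♯(P ⊓ 𝐂 T)
  · exact Or.inr ⟨hTP, fun x hx => (hchar _ inferInstance hK x hx).2⟩
  left
  have hK0 : P ⊓ 𝐂 T = ⊥ := by
    by_contra h
    exact hK ((hPp.inf_left).dvd_card h)
  have hidx : PiNat {p}ᶜ (P.relIndex T) := by
    rw [hP, hT, relIndex_pPPrime]
    exact (piNat_compl_single_iff_coprime hp.out).mpr CF.Solv.pPrimeCore_coprime
  obtain ⟨R, hR⟩ := exists_compl (K := P) (M := T)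
    ⟨hPT, by rw [normalizer_eq_top]; exact le_top⟩ (hPp.coprime hidx)
  have hRp : PiGrp {p}ᶜ R := by
    show PiNat _ _
    rw [← hR.relIndex_left]; exact hidx
  have hsup := sup_norm_compl hR (hPp.coprime hRp).symm hPp.sol
  have hP1 : P ≠ ⊥ := by
    intro h
    rw [h, cent_bot, top_le_iff] at hC
    apply hTP
    rw [h, hC]; exact eq_top_iff.mpr (hC ▸ bot_le)
  have hN : ¬ p ∣ ♯(𝐍 R) := by
    intro hd
    obtain ⟨x, hx, hxo⟩ := exists_mem_orderOf_eq hp.out hd
    have hxp : x ^ p = 1 := hxo ▸ pow_orderOf_eq_one x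
    have hZ : x ∈ P ⊓ 𝐂 P := hchar _ inferInstance
      ((hPp.inf_left).dvd_card (hPp.center_ne_bot hP1)) x hxp
    have hxR : x ∈ 𝐂 R := inf_norm_le_cent hR.norm hR.inf' ⟨hZ.1, hx⟩
    have hxT : x ∈ 𝐂 T := by
      rw [← hR.sup, cent_sup]; exact ⟨hZ.2, hxR⟩
    have : x = 1 := eq_one_of_mem_bot hK0 ⟨hZ.1, hxT⟩
    rw [this, orderOf_one] at hxo
    exact hp.out.one_lt.ne hxo
  intro hd
  apply hN
  have e : P.index = P.relIndex (𝐍 R) := by
    rw [← relIndex_top_right, ← hsup]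
    exact relIndex_sup_norm' (Or.inl (by rw [normalizer_eq_top P]; exact le_top))
  exact (e ▸ hd).trans (relIndex_dvd_card _ _)

theorem pLengthLE_one_of_quotient {p : ℕ} [hp : Fact p.Prime]
    (h : ¬ p ∣ (Cfsg.pCore p (G ⧸ Cfsg.pPrimeCore p G)).index) : Cfsg.PLengthLE p 1 G := by
  rw [pLengthLE_top_iff hp.out, PLen1, ← pPrimePCore_eq hp.out, relIndex_top_right,
    piNat_compl_single hp.out, Cfsg.pPrimePCore,
    index_comap_of_surjective _ (QuotientGroup.mk'_surjective _)]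
  exact h

/-- elements of order `p` lift along a quotient by a `p'`-group -/
theorem exists_lift_pow_eq_one {p : ℕ} [hp : Fact p.Prime] (N : Subgroup G) [N.Normal]
    (hN : (♯N).Coprime p) (y : G ⧸ N) (hy : y ^ p = 1) :
    ∃ x : G, x ^ p = 1 ∧ (x : G ⧸ N) = y := by
  obtain ⟨g, rfl⟩ := QuotientGroup.mk_surjective y
  obtain ⟨a, b, ha, hb, hap, hbp, hab⟩ := exists_piPart {p} g
  have hgy : PiElt {p} (g : G ⧸ N) := piElt_of_pow_eq_one hp.out hy
  have hb1 : (b : G ⧸ N) = 1 := by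
    refine PiElt.eq_one (π := {p}) ?_ (hbp.map (QuotientGroup.mk' N))
    obtain ⟨k, rfl⟩ := mem_zpowers_iff.mp hb
    exact hgy.of_mem_zpowers ⟨k, by simp⟩
  have ha1 : (a : G ⧸ N) = g := by
    rw [← hab, QuotientGroup.mk_mul, hb1, mul_one]
  refine ⟨a, ?_, ha1⟩
  have h1 : a ^ p ∈ N := by
    rw [← QuotientGroup.eq_one_iff, QuotientGroup.mk_pow, ha1, hy]
  exact PiElt.eq_one (π := {p}) (hap.pow p)
    (PiGrp.elt ((piNat_compl_single_iff_coprime hp.out).mpr hN) h1)

end CF.Fgs1
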