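/-
Solvable groups with one class of involutions (Thompson): `2`-length one.
-/
import Cfsg.Agent.Fgs1.Aniso
import Cfsg.Agent.Fgs1.PAuto
import Cfsg.Agent.BG2.P4a
import Cfsg.Agent.Coprime.Special
set_option autoImplicit false
set_option linter.unusedSectionVars false

namespace CF.Fgs1
open Subgroup CF.BG
open scoped commutatorElement Pointwise

variable {G : Type*} [Group G] [Finite G]

theorem aniso_semireg {Y V R : Subgroup G} (hVY : V ≤ Y) (hZ : V ≤ 𝐂 Y)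
    (hV : ∀ y ∈ Y, y ^ 2 = 1 ↔ y ∈ V) (hsq : ∀ y ∈ Y, y ^ 2 ∈ V)
    (htr : ∀ v ∈ V, v ≠ 1 → ∀ w ∈ V, w ≠ 1 → ∃ g ∈ 𝐍 Y, g * v * g⁻¹ = w)
    (hRY : R ≤ 𝐍 Y) (hR : PiGrp {2}ᶜ R) (hRV : R ≤ 𝐂 V) : R ≤ 𝐂 Y ∨ Y ⊓ 𝐂 R ≤ V := by
  by_cases hne : Y ≤ V
  · exact Or.inr (inf_le_left.trans hne)
  have hZ' : V.subgroupOf Y ≤ center Y := fun v hv =>
    mem_center_iff.mpr fun y => Subtype.ext (mem_cent.mp (hZ hv) y y.2)
  have hV' : ∀ y : Y, y ^ 2 = 1 ↔ y ∈ V.subgroupOf Y := fun y => by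
    rw [mem_subgroupOf, ← hV y y.2, Subtype.ext_iff]; rfl
  have hsq' : ∀ y : Y, y ^ 2 ∈ V.subgroupOf Y := fun y => hsq y y.2
  have hY : PiGrp {2} Y := by
    have := (aniso_pi hZ' hV' hsq').map Y.subtype
    rwa [map_top_subtype] at this
  have hcop : (♯R).Coprime (♯Y) := hR.coprime' hY
  have hder : ⁅Y, Y⁆ ≤ V := commutator_le.mpr fun a ha b hb =>
    aniso_comm_mem hZ' hV' hsq' ⟨a, ha⟩ ⟨b, hb⟩
  obtain ⟨n, hfib⟩ : ∃ n, ∀ v ∈ V.subgroupOf Y, v ≠ 1 → Nat.card {y : Y // y ^ 2 = v} = n := by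
    by_cases h : ∃ v ∈ V.subgroupOf Y, v ≠ 1
    · obtain ⟨w, hw, hw1⟩ := h
      refine ⟨Nat.card {y : Y // y ^ 2 = w}, fun v hv hv1 => ?_⟩
      obtain ⟨g, hg, e⟩ := htr v hv (fun h => hv1 (Subtype.ext h)) w hw
        (fun h => hw1 (Subtype.ext h))
      refine Nat.card_congr (Equiv.subtypeEquiv (Y.normalizerMonoidHom ⟨g, hg⟩).toEquiv fun y => ?_)
      have : (Y.normalizerMonoidHom ⟨g, hg⟩) v = w := Subtype.ext e
      rw [← this]
      show _ ↔ ((Y.normalizerMonoidHom ⟨g, hg⟩) y) ^ 2 = _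
      rw [← map_pow, (MulEquiv.injective _).eq_iff]
    · push Not at h
      exact ⟨0, fun v hv hv1 => absurd (h v hv) hv1⟩
  rcases aniso_count hZ' hV' hsq' hfib (fun h => hne (subgroupOf_eq_top.mp h)) with h | ⟨h1, h2⟩
  · left
    refine cent_of_stable (N := V) (coprime_mono hcop le_rfl hVY) ?_ hRV
    refine commutator_le.mpr fun y hy r hr => ?_
    have h3 : r * y⁻¹ * r⁻¹ ∈ Y := conj_mem_of_norm (hRY hr) (inv_mem hy)
    have := h ⟨y⁻¹, inv_mem hy⟩ ⟨_, h3⟩ (Subtype.ext (by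
      show (r * y⁻¹ * r⁻¹) ^ 2 = y⁻¹ ^ 2
      rw [conj_pow, ← mem_cent.mp (hRV hr) _ (hsq _ (inv_mem hy)), mul_inv_cancel_right]))
    have e : ⁅y, r⁆ = y⁻¹⁻¹ * (r * y⁻¹ * r⁻¹) := by rw [commutatorElement_def]; group
    rw [e]; exact this
  rw [card_subgroupOf' hVY] at h1 h2
  have h3 : ∀ u ∈ Y, u ∉ V → ♯(Y ⊓ 𝐂₁ u) = ♯V ^ 2 := by
    intro u hu hu'
    have := map_inf_cent1 (A := ⊤) (x := (⟨u, hu⟩ : Y)) Y.subtype_injective
    rw [map_top_subtype, top_inf_eq] at this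
    rw [← h2 ⟨u, hu⟩ hu', ← card_map Y.subtype_injective, this]; rfl
  by_contra hcon
  push Not at hcon
  obtain ⟨hc1, hc2⟩ := hcon
  set Y1 := ⁅Y, R⁆ ⊔ V with hY1
  set Y2 := Y ⊓ 𝐂 R with hY2
  have hY1Y : Y1 ≤ Y := sup_le (comm_le_left hRY) hVY
  have hVY2 : V ≤ Y2 := le_inf hVY (cent_symm hRV)
  have hsup : Y1 ⊔ Y2 = Y := by
    rw [hY1, sup_assoc, sup_eq_right.mpr hVY2]
    exact comm_sup_inf_cent hRY hcop (Or.inr hY.sol)
  have hc : Y1 ≤ 𝐂 Y2 := by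
    refine sup_le ?_ (cent_mono hZ le_rfl inf_le_left)
    rw [← comm_eq_bot, ← le_bot_iff]
    refine three_subgroup (by simp) (by simp) (by simp) ?_ ?_
    · rw [comm_eq_bot'.mpr (inf_le_right : Y2 ≤ _), commutator_bot_left]
    · rw [le_bot_iff, comm_eq_bot']
      exact cent_mono hRV le_rfl ((commutator_mono inf_le_left le_rfl).trans hder)
  obtain ⟨y1, hy1, hy1'⟩ : ∃ y ∈ Y1, y ∉ Y2 := by
    by_contra h
    push Not at h
    have : Y2 = Y := by rw [← hsup]; exact (sup_eq_right.mpr h).symm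
    exact hc1 (cent_symm (this ▸ inf_le_right))
  obtain ⟨y2, hy2, hy2'⟩ : ∃ y ∈ Y2, y ∉ V := by
    by_contra h
    push Not at h
    exact hc2 h
  have hV1 : 1 < ♯V := by
    by_contra h
    have h4 : ♯V = 1 := by have := card_pos' V; omega
    rw [h4, one_pow, card_eq_one'] at h1
    exact hne (h1 ▸ bot_le)
  have e1 : ♯Y2 < ♯V ^ 2 := by
    rw [← h3 y1 (hY1Y hy1) (fun h => hy1' (hVY2 h))]
    refine card_lt (lt_of_le_of_ne (le_inf inf_le_left (le_cent1_iff.mpr (hc hy1))) fun h => ?_)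
    exact hy1' (h ▸ ⟨hY1Y hy1, self_mem_cent1 _⟩)
  have e2 : ♯Y1 ≤ ♯V ^ 2 := by
    rw [← h3 y2 hy2.1 hy2']
    exact card_le (le_inf hY1Y (le_cent1_iff.mpr (cent_symm hc hy2)))
  have e3 := card_sup_mul_card_inf (H := Y1) (K := Y2) (Or.inl (norm_of_cent hc))
  rw [hsup, h1] at e3
  have e4 : ♯V ≤ ♯(Y1 ⊓ Y2) := card_le (le_inf le_sup_right hVY2)
  have e5 : ♯Y1 * ♯Y2 < ♯V ^ 2 * ♯V ^ 2 :=
    Nat.mul_lt_mul_of_le_of_lt e2 e1 (by positivity)
  have e6 : ♯V ^ 3 * ♯V ≤ ♯V ^ 3 * ♯(Y1 ⊓ Y2) := Nat.mul_le_mul_left _ e4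
  nlinarith

theorem aniso_der_cent {Y V F N : Subgroup G} (hVY : V < Y) (hZ : V ≤ 𝐂 Y) (hY : PiGrp {2} Y)
    (hV : ∀ y ∈ Y, y ^ 2 = 1 ↔ y ∈ V) (hsq : ∀ y ∈ Y, y ^ 2 ∈ V)
    (htr : ∀ v ∈ V, v ≠ 1 → ∀ w ∈ V, w ≠ 1 → ∃ g ∈ 𝐍 Y, g * v * g⁻¹ = w)
    (hNY : N ≤ 𝐍 Y) (hF : F ⊴ N) (hFn : Nil F) (hF2 : PiGrp {2}ᶜ F) (hFV : F ≤ 𝐂 V) :
    ⁅⁅N, N⁆, F⁆ ≤ 𝐂 Y := by
  set K := F ⊓ 𝐂 Y with hK
  have hFY : F ≤ 𝐍 Y := hF.le.trans hNY
  have hNK : N ≤ 𝐍 K := norm_inf_cent hF.norm hNY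
  have hFK : F ≤ 𝐍 K := hF.le.trans hNK
  have hYK : Y ≤ 𝐍 K := norm_of_cent' inf_le_right
  have hi : K ⊓ Y = ⊥ := (hF2.inf_left).inf_eq_bot' hY
  have hab : ∀ E, E ≤ qt K F → Abel E → Cyc E := by
    intro E hE hEa
    by_contra hnc
    have h1 : qt K Y ≤ qt K V := by
      refine hEa.le_of_cent1 hnc (hE.trans (qt_norm K hFY))
        (((hF2.qt K).le hE).coprime' (hY.qt K)) fun x hx hx1 => ?_
      obtain ⟨f, hf, hfn, rfl⟩ := mem_qt.mp (hE hx)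
      rintro z ⟨hz, hzc⟩
      obtain ⟨y, hy, hyn, rfl⟩ := mem_qt.mp hz
      refine qe_mem_qt ?_ hyn
      have h2 : ⁅y, f⁆ = 1 := by
        refine eq_one_of_mem_bot hi
          (mem_inf.mpr ⟨?_, comm_le_left hFY (commutator_mem_commutator hy hf)⟩)
        have hm : ⁅y, f⁆ ∈ 𝐍 K := by
          rw [commutatorElement_def]
          exact mul_mem (mul_mem (mul_mem hyn hfn) (inv_mem hyn)) (inv_mem hfn)
        rw [← qe_eq_one hm, qe_comm hyn hfn, commutatorElement_eq_one_iff_mul_comm]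
        exact mem_cent1.mp hzc
      rcases aniso_semireg hVY.le hZ hV hsq htr (R := zpowers f) ((zpowers_le.mpr hf).trans hFY)
        (hF2.le (zpowers_le.mpr hf)) ((zpowers_le.mpr hf).trans hFV) with h | h
      · exact absurd (qe_of_mem (K := K) (mem_inf.mpr ⟨hf, h (mem_zpowers f)⟩)) hx1
      · refine h ⟨hy, ?_⟩
        rw [cent_zpowers]
        exact mem_cent1.mpr (commutatorElement_eq_one_iff_mul_comm.mp h2)
    rw [qt_le_qt_iff hYK (hVY.le.trans hYK)] at h1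
    have h2 : Y ≤ V := by
      have := sup_inf_right (A := K) (N := V) (C := Y) hVY.le (Or.inr (hVY.le.trans hYK))
      rw [hi, bot_sup_eq] at this
      rw [← this]; exact le_inf h1 le_rfl
    exact hVY.not_ge h2
  have hcyc : Cyc (qt K F) := by
    refine ZGrp.cyc_of_nil (zGrp_of_forall fun p hp hd => ?_) (hFn.qt K)
    obtain ⟨P, hP⟩ := exists_syl p (qt K F)
    refine ⟨P, hP, BG2.cyc_of_pRank_le_one hp ?_ hP.pi ?_⟩
    · rintro rfl
      exact (hF2.qt K).not_dvd' hp rfl hd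
    · obtain ⟨A, hA⟩ := exists_elem_pRank p P
      rw [← hA.pRank_eq]
      exact (hab A (hA.le.trans hP.le) hA.abel).pRank_le p
  have h1 := hcyc.der_le_cent (qt_norm K hF.norm)
  rw [← qt_comm hNK hNK, qt_cent_iff ((der_le N).trans hNK) hFK] at h1
  exact h1.trans inf_le_right

theorem invol_conj_core (hs : Group.IsSolvable G) (h0 : Cfsg.pPrimeCore 2 G = ⊥)
    (htwo : ∃ x y : G, x ≠ y ∧ x ≠ 1 ∧ x ^ 2 = 1 ∧ y ≠ 1 ∧ y ^ 2 = 1)
    (hconj : ∀ x y : G, x ≠ 1 → x ^ 2 = 1 → y ≠ 1 → y ^ 2 = 1 → IsConj x y) :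
    ¬ 2 ∣ (Cfsg.pCore 2 G).index := by
  have hp : Nat.Prime 2 := Nat.prime_two
  have hnorm : ∀ K : Subgroup G, ⊤ ≤ 𝐍 K → 2 ∣ ♯K → ∀ x : G, x ^ 2 = 1 → x ∈ K := by
    intro K hK hd x hx
    by_cases hx1 : x = 1
    · rw [hx1]; exact one_mem _
    obtain ⟨y, hy, hyo⟩ := exists_mem_orderOf_eq hp hd
    obtain ⟨g, rfl⟩ := isConj_iff.mp (hconj y x (by rintro rfl; simp at hyo)
      (orderOf_dvd_iff_pow_eq_one.mp hyo.dvd) hx1 hx)
    exact conj_mem_of_norm (hK trivial) hy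
  have hps := CF.Solv.isPSolvable_of_isSolvable (G := G) 2
  rcases split_aux hps h0 (fun K hK => hnorm K (by rw [normalizer_eq_top])) with h | ⟨-, hT⟩
  · exact h
  have hsol : Sol (⊤ : Subgroup G) := inferInstance
  set P := Cfsg.pCore 2 G with hP
  have hPn : ⊤ ≤ 𝐍 P := by rw [normalizer_eq_top]
  have hPN : P ⊴ ⊤ := ⟨le_top, hPn⟩
  have hPO : P = 𝐎 {2} ⊤ := pCore_eq hp
  have hPp : PiGrp {2} P := piGrp_of_isPGroup hp CF.Solv.pCore_isPGroup
  have hC : 𝐂 P ≤ P := CF.Solv.centralizer_pCore_le_of_isPSolvable hps h0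
  obtain ⟨x0, y0, hxy, hx1, hx2, hy1, hy2⟩ := htwo
  have hP1 : P ≠ ⊥ := by
    intro h
    rw [h, cent_bot] at hC
    exact hx1 (mem_bot.mp (hC trivial))
  set V := 𝛀 2 (𝐙 P) with hVdef
  have hVn : ⊤ ≤ 𝐍 V := le_norm_Om 2 (hPn.trans (norm_center P))
  have hVa : Abelem 2 V := hPp.abelem_Om_center
  have hV1 : V ≠ ⊥ := (hPp.inf_left).Om_ne_bot (hPp.center_ne_bot hP1)
  have hV : ∀ x : G, x ^ 2 = 1 ↔ x ∈ V := fun x =>
    ⟨hnorm V hVn (hVa.pi.dvd_card hV1) x, hVa.pow x⟩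
  have hVP : V ≤ P := (Om_le _ _).trans inf_le_left
  have hVc : V ≤ 𝐂 P := (Om_le _ _).trans inf_le_right
  have hVmin : ∀ U, U ≤ V → U ≠ ⊥ → ⊤ ≤ 𝐍 U → U = V := fun U hU hU1 hUn =>
    le_antisymm hU fun x hx => hnorm U hUn ((hVa.pi.le hU).dvd_card hU1) x ((hV x).mpr hx)
  -- the Fitting subgroup of `G / P`
  set F := qp P (𝐅 (qt P ⊤)) with hF
  have hFN : F ⊴ ⊤ := (F_normal _).qp_of_qt hPN
  have hPF : P ≤ F := le_qp _
  have hF2 : PiGrp {2}ᶜ (𝐅 (qt P ⊤)) := by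
    have h1 := syl_O_F 2 (qt P (⊤ : Subgroup G))
    have h2 : 𝐎 {2} (qt P ⊤) = ⊥ := by rw [hPO]; exact O_qt_O _ _
    rw [h2] at h1
    exact h1.pi'_of_eq_bot
  have hidx : PiNat {2}ᶜ (P.relIndex F) := by rw [hF, relIndex_qp]; exact hF2
  have hFT : F ≤ pPPrime 2 G := by
    have := normalIn_top.mp hFN
    refine (le_comap_map (QuotientGroup.mk' P) F).trans (comap_mono ?_)
    refine CF.Solv.le_pPrimeCore (hN := this.map _ (QuotientGroup.mk'_surjective _)) ?_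
    have e := relIndex_comap (⊥ : Subgroup (G ⧸ P)) (QuotientGroup.mk' P) F
    rw [MonoidHom.comap_bot, QuotientGroup.ker_mk', relIndex_bot_left] at e
    rw [← e]
    exact (piNat_compl_single_iff_coprime hp).mp hidx
  have hFV : F ≤ 𝐂 V := cent_symm fun x hx => cent_anti hFT (hT x ((hV x).mpr hx))
  obtain ⟨R, hR⟩ := exists_compl (hPN.of_le hPF le_top) (hPp.coprime hidx)
  have hRp : PiGrp {2}ᶜ R := by
    show PiNat _ _
    rw [← hR.relIndex_left]; exact hidx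
  have hRnil : Nil R := by
    refine Nil.of_qt ?_ hR.norm hR.inf
    rw [← hR.qt_eq, hF, qt_qp]; exact F_nil _
  have := normalIn_top.mp hFN
  have hsup := sup_norm_compl hR (hPp.coprime hRp).symm hPp.sol
  set N := 𝐍 R with hN
  have hRN : R ⊴ N := normalIn_norm R
  have htr : ∀ v ∈ V, v ≠ 1 → ∀ w ∈ V, w ≠ 1 → ∃ g ∈ N, g * v * g⁻¹ = w := by
    intro v hv hv1 w hw hw1
    obtain ⟨g, rfl⟩ := isConj_iff.mp (hconj v w hv1 ((hV v).mpr hv) hw1 ((hV w).mpr hw))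
    have hg : g ∈ N ⊔ P := by rw [sup_comm, hsup]; trivial
    obtain ⟨a, ha, b, hb, rfl⟩ := (mem_sup_norm (le_top.trans hPn)).mp hg
    refine ⟨a, ha, ?_⟩
    have := mem_cent.mp (hVc hv) b hb
    rw [mul_assoc a b v, this]; group
  -- `N'` centralizes `R`
  have hB : ⁅⁅N, N⁆, R⁆ ≤ 𝐂 P := by
    by_contra hB
    set B := ⁅⁅N, N⁆, R⁆ with hBdef
    have hBN : B ⊴ N := (der_normal N).comm hRN
    have hBR : B ≤ R := comm_le_right ((der_le N).trans hRN.norm)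
    obtain ⟨Y, hYP, ⟨hYN, hYB⟩, hmin⟩ := exists_minimal
      (P := fun Y => N ≤ 𝐍 Y ∧ ¬ B ≤ 𝐂 Y) (H := P) ⟨le_top.trans hPn, hB⟩
    have hYp := hPp.le hYP
    have hcop := (piNat_compl_single_iff_coprime hp).mp (hRp.le hBR)
    have hmin' : ∀ U : Subgroup G, U < Y → N ≤ 𝐍 U → B ≤ 𝐍 U → B ≤ 𝐂 U := by
      intro U hU h1 _
      by_contra h2
      exact hU.ne (hmin U ⟨h1, h2⟩ hU.le)
    have m1 := CF.Coprime.minAct_frattiniOf_eq hYp.isPGroup hYN (hBN.le.trans hYN) hBN.norm hcop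
      hYB hmin'
    have m2 := CF.Coprime.minAct_frattiniOf_eq' hYp.isPGroup hYN (hBN.le.trans hYN) hBN.norm hcop
      hYB hmin'
    have m3 := CF.Coprime.minAct_frattiniOf_le_centralizer hYp.isPGroup hYN (hBN.le.trans hYN)
      hBN.norm hcop hYB hmin'
    have hY1 : Y ≠ ⊥ := by rintro rfl; exact hYB (by simp)
    have hBV : B ≤ 𝐂 V := (hBR.trans hR.right_le).trans hFV
    have hVY : V ≤ Y := by
      obtain ⟨y, hy, hyo⟩ := exists_mem_orderOf_eq hp (hYp.dvd_card hY1)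
      have hyV := (hV y).mp (orderOf_dvd_iff_pow_eq_one.mp hyo.dvd)
      intro v hv
      by_cases hv1 : v = 1
      · rw [hv1]; exact one_mem _
      obtain ⟨g, hg, rfl⟩ := htr y hyV (by rintro rfl; simp at hyo) v hv hv1
      exact conj_mem_of_norm (hYN hg) hy
    have hder : ⁅Y, Y⁆ ≤ V := commutator_le.mpr fun a ha b hb => by
      rw [← hV, ← CF.Coprime.commutator_pow_left_of_class_two (m1 ▸ m3) ha hb,
        commutatorElement_eq_one_iff_mul_comm]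
      exact (mem_cent.mp (m3 (hYp.pow_mem_Phi ha)) b hb).symm
    refine hYB (aniso_der_cent (V := V) (lt_of_le_of_ne hVY ?_) (cent_mono hVc le_rfl hYP) hYp
      (fun y _ => hV y) (fun y hy => hder (m1 ▸ hYp.pow_mem_Phi hy)) ?_ hYN hRN hRnil hRp
      (hR.right_le.trans hFV))
    · rintro rfl; exact hYB hBV
    · intro v hv hv1 w hw hw1
      obtain ⟨g, hg, e⟩ := htr v hv hv1 w hw hw1
      exact ⟨g, hYN hg, e⟩
  have hB' : ⁅N, N⁆ ≤ 𝐂 R := by
    rw [← comm_eq_bot]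
    exact eq_bot_mono hR.inf (le_inf (hB.trans hC) (comm_le_right ((der_le N).trans hRN.norm)))
  have hder : ⁅(⊤ : Subgroup G), ⊤⁆ ≤ F := by
    rw [hF, ← qt_le_iff (le_top.trans hPn), qt_comm hPn hPn]
    have e : qt P ⊤ = qt P N := by rw [← hsup, qt_sup_left (le_top.trans hPn)]
    refine le_trans ?_ (hsol.qt P).cent_F_le
    refine le_inf (der_le _) ?_
    have e2 : 𝐅 (qt P ⊤) = qt P R := by rw [← hR.qt_eq, hF, qt_qp]
    rw [e2, e, ← qt_comm (le_top.trans hPn) (le_top.trans hPn)]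
    exact qt_cent P hB'
  have hderV : ⁅(⊤ : Subgroup G), ⊤⁆ ≤ 𝐂 V := hder.trans hFV
  have hinv : ∀ D : Subgroup G, ⊤ ≤ 𝐍 (V ⊓ 𝐂 D) := by
    intro D
    have e : V ⊓ 𝐂 D = V ⊓ 𝐂 (D ⊔ 𝐂 V) := by
      rw [cent_sup, ← inf_assoc]
      exact (inf_eq_left.mpr (inf_le_left.trans (cent_symm le_rfl))).symm
    rw [e]
    exact norm_inf_cent hVn (norm_of_der_le le_top (hderV.trans le_sup_right))
  obtain ⟨S, hS⟩ := exists_syl 2 (⊤ : Subgroup G)
  have hSV : S ≤ 𝐂 V := by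
    have := hVmin _ inf_le_left (hS.pi.inf_cent_ne_bot hVa.pi (le_top.trans hVn) hV1) (hinv S)
    exact cent_symm (this ▸ inf_le_right)
  have hPS : P ≤ S := hS.le_of_normal hPN hPp
  have hSF : S ⊔ F ⊴ ⊤ := normalIn_of_der_le le_top (hder.trans le_sup_right)
  have hfr := (hS.of_le le_sup_left le_top).syl_frattini_sup hSF
  rw [top_inf_eq] at hfr
  obtain ⟨D, hD, hD'⟩ := (hS.of_le (le_norm_self S) le_top).exists_compl le_rfl
  have hDV : ¬ D ≤ 𝐂 V := by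
    intro h
    have h1 : ⊤ ≤ 𝐂 V := by
      rw [← hfr, ← hD.sup]
      exact sup_le (sup_le hSV hFV) (sup_le hSV h)
    obtain ⟨g, e⟩ := isConj_iff.mp (hconj x0 y0 hx1 hx2 hy1 hy2)
    rw [← mem_cent.mp (h1 (mem_top g)) x0 ((hV x0).mp hx2), mul_inv_cancel_right] at e
    exact hxy e
  have hVD : V ⊓ 𝐂 D = ⊥ := by
    by_contra h
    have := hVmin _ inf_le_left h (hinv D)
    exact hDV (cent_symm (this ▸ inf_le_right))
  have hSD : S ⊓ 𝐂 D = ⊥ := by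
    by_contra h
    obtain ⟨y, hy, hyo⟩ := exists_mem_orderOf_eq hp ((hS.pi.inf_left).dvd_card h)
    have := eq_one_of_mem_bot hVD ⟨(hV y).mp (orderOf_dvd_iff_pow_eq_one.mp hyo.dvd), hy.2⟩
    rw [this] at hyo; simp at hyo
  have hSP : S ≤ P := by
    have h1 := comm_sup_inf_cent hD.norm (hD'.pi.coprime' hS.pi) (Or.inr hS.pi.sol)
    rw [hSD, sup_bot_eq] at h1
    refine hS.pi.le_of_relIndex (L := F) ?_ (le_top.trans hPn) hidx
    rw [← h1]
    exact (commutator_mono le_top le_top).trans hder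
  have := hS.not_dvd hp
  rwa [le_antisymm hSP hPS, relIndex_top_right] at this

theorem homocyclic_of_transitive {A : Type*} [CommGroup A] [Finite A] {p : ℕ} (hp : p.Prime)
    (hA : IsPGroup p A)
    (h : ∀ x y : A, orderOf x = p → orderOf y = p → ∃ φ : MulAut A, φ x ∈ zpowers y) :
    ∃ m r : ℕ, Nonempty (A ≃* (Fin r → Multiplicative (ZMod (p ^ m)))) := by
  classical
  have : Fact p.Prime := ⟨hp⟩
  obtain ⟨ι, _, n, hn, ⟨e⟩⟩ := CommGroup.equiv_prod_multiplicative_zmod_of_finite A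
  have hB := hA.of_equiv e
  have := Finite.of_equiv _ e.toEquiv
  let g : (i : ι) → ((i : ι) → Multiplicative (ZMod (n i))) :=
    fun i => Pi.mulSingle i (Multiplicative.ofAdd 1)
  have hg : ∀ i, orderOf (g i) = n i := fun i => by
    have := orderOf_injective (MonoidHom.mulSingle (fun i => Multiplicative (ZMod (n i))) i)
      (Pi.mulSingle_injective (M := fun i => Multiplicative (ZMod (n i))) i)
      (Multiplicative.ofAdd 1)
    rw [orderOf_ofAdd_eq_addOrderOf, ZMod.addOrderOf_one] at this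
    exact this
  have ha : ∀ i, ∃ a, n i = p ^ (a + 1) := fun i => by
    obtain ⟨k, hk⟩ := (IsPGroup.iff_orderOf.mp hB) (g i)
    rw [hg] at hk
    rcases k with _ | k
    · have := hn i; rw [pow_zero] at hk; omega
    · exact ⟨k, hk⟩
  choose a ha using ha
  have ht : ∀ i, orderOf (g i ^ p ^ a i) = p := fun i => by
    rw [orderOf_pow, hg, ha, Nat.gcd_eq_right (pow_dvd_pow p (Nat.le_succ _)), pow_succ,
      Nat.mul_div_cancel_left _ (pow_pos hp.pos _)]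
  have hle : ∀ i j, a j ≤ a i := by
    intro i j
    by_contra hlt
    obtain ⟨φ, hφ⟩ := h (e.symm (g j ^ p ^ a j)) (e.symm (g i ^ p ^ a i))
      (by rw [MulEquiv.orderOf_eq, ht]) (by rw [MulEquiv.orderOf_eq, ht])
    obtain ⟨k, hk⟩ := mem_zpowers_iff.mp hφ
    have h1 : (g i ^ p ^ a i) ^ k = e (φ (e.symm (g j))) ^ p ^ a j := by
      apply e.symm.injective
      rw [map_zpow, hk, map_pow, map_pow, map_pow, e.symm_apply_apply]
    have h2 : (g i ^ p ^ a i) ^ k = 1 := by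
      ext l
      by_cases hl : l = i
      · subst hl
        rw [h1, Pi.pow_apply, Pi.one_apply]
        have : NeZero (n l) := ⟨by have := hn l; omega⟩
        congr 1
        apply orderOf_dvd_iff_pow_eq_one.mp
        refine (_root_.orderOf_dvd_natCard _).trans ?_
        rw [Nat.card_congr Multiplicative.toAdd, Nat.card_zmod, ha]
        exact pow_dvd_pow p (by omega)
      · simp [g, Pi.mulSingle_eq_of_ne hl]
    have h3 : φ (e.symm (g j ^ p ^ a j)) = 1 := by rw [← hk, ← map_zpow, h2, map_one]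
    rw [map_eq_one_iff _ φ.injective, map_eq_one_iff _ e.symm.injective] at h3
    have := ht j
    rw [h3, orderOf_one] at this
    exact hp.one_lt.ne this
  obtain ⟨m, hm⟩ : ∃ m, ∀ i, n i = p ^ m := by
    by_cases hι : Nonempty ι
    · obtain ⟨j⟩ := hι
      exact ⟨a j + 1, fun i => by rw [ha, le_antisymm (hle j i) (hle i j)]⟩
    · exact ⟨0, fun i => absurd ⟨i⟩ hι⟩
  obtain rfl : n = fun _ => p ^ m := funext hm
  exact ⟨m, Fintype.card ι, ⟨e.trans (MulEquiv.arrowCongr (Fintype.equivFin ι) (MulEquiv.refl _))⟩⟩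

end CF.Fgs1
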