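import Cfsg.Agent.Fgs1.LieHKK
import Cfsg.Agent.Solv.PiSep
import Cfsg.Agent.Transfer.Residual

/-!
# Alperin's theorem on solvable groups with an automorphism of prime order
-/

set_option autoImplicit false

namespace CF.Fgs1.Lie

open Subgroup Cfsg
open scoped commutatorElement

variable {G : Type*} [Group G]

local notation "γ" => Subgroup.lowerCentralSeries

open CF.Solv CF.Transfer in
theorem mem_pCore_of_frattini [Finite G] {p : ℕ} [Fact p.Prime] (hG : IsPSolvable p G)
    (h0 : pPrimeCore p G = ⊥) (g : G)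
    (h : ∀ x ∈ pCore p G, g * x * g⁻¹ * x⁻¹ ∈ CF.Coprime.frattiniOf (pCore p G)) :
    g ∈ pCore p G := by
  set Q := pCore p G with hQ
  set F := CF.Coprime.frattiniOf Q with hF
  have hFn : F.Normal := inferInstanceAs ((frattini Q).map Q.subtype).Normal
  have hs := QuotientGroup.mk'_surjective F
  have : (Q.map (QuotientGroup.mk' F)).Normal := Normal.map inferInstance _ hs
  set C := (centralizer ((Q.map (QuotientGroup.mk' F) : Subgroup (G ⧸ F)) : Set (G ⧸ F))).comap
    (QuotientGroup.mk' F) with hC
  have h1 : ⁅Q, C⁆ ≤ F := by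
    rw [← map_mk'_eq_bot_iff F, map_commutator, commutator_comm,
      commutator_eq_bot_iff_le_centralizer]
    exact map_comap_le _ _
  have h2 : IsPGroup p C := by
    refine isPGroup_of_forall_coprime fun y hy => ?_
    rw [← Subgroup.orderOf_coe] at hy
    have h3 := CF.Coprime.le_centralizer_of_commutator_le_frattini (zpowers (y : G)) Q
      le_normalizer_of_normal (by
        rw [Nat.card_zpowers]
        exact (coprime_card_of_isPGroup (pCore_isPGroup.to_subgroup _) hy).symm)
      ((commutator_mono le_rfl (zpowers_le.2 y.2)).trans h1) (mem_zpowers _)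
    exact Subtype.ext (eq_one_of_mem_pGroup_of_coprime pCore_isPGroup
      (centralizer_pCore_le_of_isPSolvable hG h0 h3) hy)
  refine le_pCore h2 ?_
  rintro _ ⟨x, hx, rfl⟩
  have := (QuotientGroup.eq_one_iff _).2 (h x hx)
  simp only [QuotientGroup.mk_mul, QuotientGroup.mk_inv] at this
  simp only [QuotientGroup.mk'_apply]
  calc (x : G ⧸ F) * g = ((g : G ⧸ F) * x * (g : G ⧸ F)⁻¹ * (x : G ⧸ F)⁻¹) * (x * g) := by
        rw [this, one_mul]
    _ = _ := by group

theorem alperin_core [Finite G] [Group.IsSolvable G] {p c : ℕ} [hp : Fact p.Prime]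
    (h0 : pPrimeCore p G = ⊥) {a : G} (ha : a ^ p = 1) (hc : Nat.card (centralizer {a}) ≤ c) :
    der^[alp p c + (c ^ p).factorial] (⊤ : Subgroup G) = ⊥ := by
  set P := pCore p G with hP
  have hPp : IsPGroup p P := CF.Solv.pCore_isPGroup
  refine eq_bot_iff.mpr (der_add_le (K := P) ?_ ?_)
  · set F := CF.Coprime.frattiniOf P with hF
    have hFn : F.Normal := inferInstanceAs ((frattini P).map P.subtype).Normal
    have hs := QuotientGroup.mk'_surjective F
    set V := P.map (QuotientGroup.mk' F) with hV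
    have hVn : V.Normal := Normal.map inferInstance _ hs
    have h1 : γ V 1 = ⊥ := by
      rw [hV, ← map_lowerCentralSeries, CF.Solv.map_mk'_eq_bot_iff]
      exact CF.Coprime.commutator_le_frattiniOf hPp
    have h2 := card_lcs_le hp.out (H := V) ⟨(a : G ⧸ F), normalizer_eq_top V ▸ mem_top _⟩
      (Subtype.ext (by
        show (a : G ⧸ F) ^ p = 1
        rw [← QuotientGroup.mk_pow, ha, QuotientGroup.mk_one])) (i := 0) (e := 1) (by
        rintro _ ⟨x, hx, rfl⟩
        rw [pow_one, ← map_pow, QuotientGroup.mk'_apply, (QuotientGroup.eq_one_iff _).mpr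
          (CF.Coprime.pow_mem_frattiniOf hPp hx)]
        exact one_mem _)
    rw [zero_add, h1, card_bot, mul_one, mul_one] at h2
    have h3 := der_le_centralizer V (h2.trans (Nat.pow_le_pow_left
      ((card_centralizer_quot F a).trans hc) p))
    rw [← map_top_of_surjective _ hs, ← map_der] at h3
    intro g hg
    refine mem_pCore_of_frattini (CF.Solv.isPSolvable_of_isSolvable p) h0 g fun x hx => ?_
    have h4 : (x : G ⧸ F) * g = g * x := h3 (mem_map_of_mem _ hg) _ (mem_map_of_mem _ hx)
    rw [← QuotientGroup.eq_one_iff, QuotientGroup.mk_mul, QuotientGroup.mk_mul,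
      QuotientGroup.mk_mul, QuotientGroup.mk_inv, QuotientGroup.mk_inv, ← h4,
      mul_inv_cancel_right, mul_inv_cancel]
  · have hQ : IsPGroup p (zpowers a ⊔ P : Subgroup G) :=
      IsPGroup.to_sup_of_normal_right (isPGroup_zpowers_of_pow ha) hPp
    have h1 := alperin_pgroup hQ (a := ⟨a, mem_sup_left (mem_zpowers a)⟩) (Subtype.ext ha)
      ((card_centralizer_sub _ _).trans hc)
    have h2 := map_der (zpowers a ⊔ P : Subgroup G).subtype (alp p c) ⊤
    rw [h1, Subgroup.map_bot, ← MonoidHom.range_eq_map, range_subtype] at h2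
    exact (der_mono _ le_sup_right).trans h2.ge

theorem alperin [Finite G] [Group.IsSolvable G] {p c : ℕ} [hp : Fact p.Prime] {a : G}
    (ha : a ^ p = 1) (hC : IsPGroup p (centralizer {a})) (hc : Nat.card (centralizer {a}) ≤ c) :
    der^[hig p + (alp p c + (c ^ p).factorial)] (⊤ : Subgroup G) = ⊥ := by
  set K := pPrimeCore p G with hK
  refine eq_bot_iff.mpr (der_add_le (K := K) ?_ ((der_le_lcs _ K).trans (hkk_group ha
    (normalizer_eq_top K ▸ mem_top a) ?_).le))
  · rw [← CF.Solv.map_mk'_eq_bot_iff, map_der, map_top_of_surjective _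
      (QuotientGroup.mk'_surjective K)]
    refine alperin_core CF.Solv.pPrimeCore_quotient_pPrimeCore (a := (a : G ⧸ K)) ?_
      ((card_centralizer_quot K a).trans hc)
    rw [← QuotientGroup.mk_pow, ha, QuotientGroup.mk_one]
  · rw [inf_comm]
    exact CF.Solv.inf_eq_bot_of_isPGroup_of_coprime hC CF.Solv.pPrimeCore_coprime

end CF.Fgs1.Lie
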