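import Mathlib
import Cfsg.Agent.Solv.Hall
import Cfsg.Agent.Solv.Fitting

/-! Groups with the same order type (same number of elements of each order). -/

namespace CF.Fgs1

open Subgroup CF.Solv

variable {G H : Type*} [Group G] [Group H]

/-- Same order type gives an order preserving bijection. -/
theorem exists_equiv_of_orderType [Finite G] [Finite H]
    (hT : ∀ m : ℕ, Nat.card {g : G // orderOf g = m} = Nat.card {h : H // orderOf h = m}) :
    ∃ e : G ≃ H, ∀ g, orderOf (e g) = orderOf g := by
  have : ∀ m : ℕ, Nonempty ({g : G // orderOf g = m} ≃ {h : H // orderOf h = m}) := fun m =>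
    Finite.card_eq.1 (hT m)
  exact ⟨Equiv.ofFiberEquiv (f := fun g : G => orderOf g) (g := fun h : H => orderOf h)
    fun m => (this m).some, fun g => Equiv.ofFiberEquiv_map _ g⟩

theorem card_filter_of_equiv (e : G ≃ H) (he : ∀ g, orderOf (e g) = orderOf g) (P : ℕ → Prop) :
    Nat.card {g : G // P (orderOf g)} = Nat.card {h : H // P (orderOf h)} :=
  Nat.card_congr (e.subtypeEquiv fun g => by rw [he])

theorem mem_of_isPiHall_normal [Finite G] {π : Set ℕ} {N : Subgroup G} [N.Normal]
    (hN : Cfsg.IsPiHall π N) {x : G} : x ∈ N ↔ PiNum π (orderOf x) := by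
  constructor
  · intro hx
    exact (isPiHall_piNum_card hN).of_dvd (N.orderOf_dvd_natCard hx)
  · intro hx
    exact le_of_isPiHall_of_normal hN (K := zpowers x) (by rwa [Nat.card_zpowers]) (mem_zpowers x)

theorem card_piElements_of_normal [Finite G] {π : Set ℕ} {N : Subgroup G} [N.Normal]
    (hN : Cfsg.IsPiHall π N) : Nat.card {g : G // PiNum π (orderOf g)} = Nat.card N :=
  Nat.card_congr (Equiv.subtypeEquivRight fun _ => (mem_of_isPiHall_normal hN).symm)

theorem mem_iff_of_card_piElements [Finite G] {π : Set ℕ} {K : Subgroup G}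
    (hK : PiNum π (Nat.card K)) (h : Nat.card {g : G // PiNum π (orderOf g)} ≤ Nat.card K)
    {x : G} : x ∈ K ↔ PiNum π (orderOf x) := by
  have hsub : (K : Set G) ⊆ {g : G | PiNum π (orderOf g)} := fun y hy =>
    hK.of_dvd (K.orderOf_dvd_natCard hy)
  have := Set.eq_of_subset_of_ncard_le hsub (by
    rw [← Nat.card_coe_set_eq, ← Nat.card_coe_set_eq]; exact h)
  exact Set.ext_iff.1 this x

theorem normal_of_card_piElements [Finite G] {π : Set ℕ} {K : Subgroup G}
    (hK : PiNum π (Nat.card K)) (h : Nat.card {g : G // PiNum π (orderOf g)} ≤ Nat.card K) :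
    K.Normal := by
  refine ⟨fun x hx g => ?_⟩
  rw [mem_iff_of_card_piElements hK h] at hx ⊢
  have : orderOf (g * x * g⁻¹) = orderOf x := by
    have := (MulAut.conj g).orderOf_eq x
    simpa using this
  rwa [this]

/-- If `G` has a normal Hall `π`-subgroup and `H` has the same order type, then each Hall
`π`-subgroup of `H` is normal. -/
theorem normal_of_orderType [Finite G] [Finite H] (e : G ≃ H)
    (he : ∀ g, orderOf (e g) = orderOf g) {π : Set ℕ} {N : Subgroup G} [N.Normal]
    (hN : Cfsg.IsPiHall π N) {K : Subgroup H} (hK : Cfsg.IsPiHall π K) : K.Normal := by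
  refine normal_of_card_piElements (isPiHall_piNum_card hK) (le_of_eq ?_)
  rw [← card_filter_of_equiv e he, card_piElements_of_normal hN]
  refine PiNum.eq_of_mul_eq (isPiHall_piNum_card hN) (isPiHall_piNum_index hN)
    (isPiHall_piNum_card hK) (isPiHall_piNum_index hK) ?_
  rw [card_mul_index, card_mul_index, Nat.card_congr e]

/-- Extending a normal Hall subgroup by a Sylow subgroup. -/
theorem isPiHall_sup_sylow [Finite G] {π : Set ℕ} {N : Subgroup G} [N.Normal]
    (hN : Cfsg.IsPiHall π N) {p : ℕ} [Fact p.Prime] (P : Sylow p G) :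
    Cfsg.IsPiHall (insert p π) ((P : Subgroup G) ⊔ N) := by
  have hP := sylow_isPiHall P
  rw [isPiHall_iff]
  refine ⟨piNum_card_sup ((isPiHall_piNum_card hP).mono ?_) ((isPiHall_piNum_card hN).mono ?_), ?_⟩
  · simp
  · exact Set.subset_insert _ _
  · intro q hq hd
    have h1 := isPiHall_piNum_index hP q hq (hd.trans (index_dvd_of_le le_sup_left))
    have h2 := isPiHall_piNum_index hN q hq (hd.trans (index_dvd_of_le le_sup_right))
    simp only [Set.mem_compl_iff, Set.mem_singleton_iff, Set.mem_insert_iff] at h1 h2 ⊢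
    tauto

end CF.Fgs1
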